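import Cfsg.Agent.H504.TwoExt
import Cfsg.Agent.HKS.CosetTwo
import Cfsg.Agent.Blocks.Central
import Cfsg.Agent.S0173
import Cfsg.Agent.S0886
import Cfsg.Agent.H55.OutGen

/-!
# S4897: improved averaging and groups with a simple subgroup of index two (helper633)

* `card_three` : the number of irreducible characters with three zeros in `s`;
* `two_of_avg'` : `∑ f g < (#s - 2) (k - 1) + 2` implies `Two G`;
* `card_outer` : `N` of index two: the classes of `G` outside `N` are as many as the classes of `N`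
  invariant in `G`;
* `two_of_index_two` : `Two G` from data of `N`.
-/

set_option autoImplicit false
set_option linter.unusedSectionVars false

open scoped ComplexConjugate

namespace Cfsg.Agent.H633.TwoIdx

open Cfsg Cfsg.Agent.Characters.Core Cfsg.Agent.H504.ZeroTI Cfsg.Agent.H504.Zeros
open Cfsg.Agent.H504.TwoZ

universe u v

section Avg

variable {G : Type u} [Group G]

open Classical in
/-- the number of elements of `s` where `χ` vanishes -/
noncomputable def zin (s : Finset G) (χ : IrrCharacter G) : ℕ :=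
  (s.filter fun g => (χ : G → ℂ) g = 0).card

theorem sum_zin [Finite G] [Fintype (IrrCharacter G)] (s : Finset G) :
    ∑ χ : IrrCharacter G, zin s χ + ∑ g ∈ s, nv g = s.card * Nat.card (ConjClasses G) := by
  classical
  have h1 : ∑ χ : IrrCharacter G, zin s χ =
      ∑ g ∈ s, Nat.card {χ : IrrCharacter G // (χ : G → ℂ) g = 0} := by
    simp only [zin, Finset.card_filter]
    rw [Finset.sum_comm]
    refine Finset.sum_congr rfl fun g _ => ?_
    rw [Nat.card_eq_fintype_card, Fintype.card_subtype, Finset.card_filter]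
  rw [h1, ← Finset.sum_add_distrib, Finset.sum_congr rfl fun g _ => card_zero_add_nv g,
    Finset.sum_const, smul_eq_mul]

theorem zin_le (s : Finset G) (χ : IrrCharacter G) : zin s χ ≤ s.card := by
  classical
  unfold zin
  exact Finset.card_filter_le _ _

theorem zin_le_zc [Finite G] {s : Finset G} (hs : NonConj s) (χ : IrrCharacter G) :
    zin s χ ≤ zc χ := by
  classical
  unfold zin
  refine le_zc (fun g hg h hh hc => ?_) fun g hg => (Finset.mem_filter.1 hg).2
  exact hs g (Finset.mem_filter.1 hg).1 h (Finset.mem_filter.1 hh).1 hc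

theorem zin_one [Finite G] (s : Finset G) : zin s (⟨1, isIrr_one⟩ : IrrCharacter G) = 0 := by
  classical
  unfold zin
  rw [Finset.card_eq_zero, Finset.filter_eq_empty_iff]
  intro g _ h
  exact one_ne_zero h

/-- the number of characters with at least three zeros in `s` -/
theorem card_three [Finite G] (s : Finset G) (h2 : 2 ≤ s.card) (f : G → ℕ)
    (hf : ∀ g ∈ s, nv g ≤ f g) {k j : ℕ} (hk : k ≤ Nat.card (ConjClasses G))
    (h : ∑ g ∈ s, f g < (s.card - 2) * (k - j) + 2) :
    j < Nat.card {χ : IrrCharacter G // 3 ≤ zin s χ} := by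
  classical
  have := finite_irr (G := G)
  have := Fintype.ofFinite (IrrCharacter G)
  rw [Nat.card_eq_fintype_card, Fintype.card_subtype]
  set T := Finset.univ.filter (fun χ : IrrCharacter G => 3 ≤ zin s χ) with hT
  by_contra hcon
  rw [not_lt] at hcon
  have h1 := sum_zin s
  have h3 : ∑ g ∈ s, nv g ≤ ∑ g ∈ s, f g := Finset.sum_le_sum hf
  set o : IrrCharacter G := ⟨1, isIrr_one⟩ with ho
  have hoT : o ∉ T := by
    rw [hT, Finset.mem_filter, ho, zin_one]
    omega
  have hunion : ∑ χ : IrrCharacter G, zin s χ = ∑ χ ∈ T, zin s χ + ∑ χ ∈ Tᶜ, zin s χ :=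
    (Finset.sum_add_sum_compl T _).symm
  have h4 : ∑ χ ∈ T, zin s χ ≤ T.card * s.card := by
    refine (Finset.sum_le_sum fun χ _ => zin_le s χ).trans ?_
    rw [Finset.sum_const, smul_eq_mul]
  have h5 : ∑ χ ∈ Tᶜ, zin s χ ≤ 2 * (Tᶜ.card - 1) := by
    have hoC : o ∈ Tᶜ := Finset.mem_compl.2 hoT
    rw [← Finset.add_sum_erase _ _ hoC, ho, zin_one, zero_add, ← ho]
    have h6 : ∑ χ ∈ Tᶜ.erase o, zin s χ ≤ ∑ χ ∈ Tᶜ.erase o, 2 := by
      refine Finset.sum_le_sum fun χ hχ => ?_
      have h7 := Finset.mem_compl.1 (Finset.mem_of_mem_erase hχ)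
      rw [hT, Finset.mem_filter] at h7
      by_contra h8
      exact h7 ⟨Finset.mem_univ _, by omega⟩
    rw [Finset.sum_const, smul_eq_mul, Finset.card_erase_of_mem hoC] at h6
    omega
  have h6 : T.card + Tᶜ.card = Nat.card (ConjClasses G) := by
    rw [Finset.card_add_card_compl, ← card_classes_eq, Nat.card_eq_fintype_card]
  have h7 : 1 ≤ Tᶜ.card := Finset.card_pos.2 ⟨o, Finset.mem_compl.2 hoT⟩
  obtain ⟨m, hm⟩ : ∃ m, s.card = m + 2 := ⟨s.card - 2, by omega⟩
  obtain ⟨r, hr⟩ : ∃ r, Tᶜ.card = r + 1 := ⟨Tᶜ.card - 1, by omega⟩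
  rw [hr] at h5 h6
  rw [Nat.add_sub_cancel] at h5
  rw [hm] at h h1 h4
  rw [Nat.add_sub_cancel] at h
  rw [← h6] at h1
  have h8 : k - j ≤ r + 1 := by omega
  have h9 := Nat.mul_le_mul_left m h8
  have h10 : (m + 2) * (T.card + (r + 1)) = T.card * (m + 2) + m * (r + 1) + 2 * r + 2 := by ring
  rw [h10] at h1
  omega

/-- **The average, improved**: `∑ f g < (#s - 2) (k - 1) + 2`. -/
theorem two_of_avg' [Finite G] (s : Finset G) (hs : NonConj s) (h2 : 2 ≤ s.card) (f : G → ℕ)
    (hf : ∀ g ∈ s, nv g ≤ f g) {k : ℕ} (hk : k ≤ Nat.card (ConjClasses G))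
    (h : ∑ g ∈ s, f g < (s.card - 2) * (k - 1) + 2) : Two G := by
  have := finite_irr (G := G)
  have h1 := card_three s h2 f hf hk h
  rw [Finite.one_lt_card_iff_nontrivial] at h1
  obtain ⟨a, b, hab⟩ := h1
  exact ⟨a.1, b.1, fun h => hab (Subtype.ext h), a.2.trans (zin_le_zc hs _),
    b.2.trans (zin_le_zc hs _)⟩

end Avg

section Idx

variable {G : Type u} [Group G] (N : Subgroup G) [hNn : N.Normal]

/-- the classes of `G` outside `N` -/
abbrev Outer : Type _ := {c : ConjClasses G // Quotient.out c ∉ N}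

theorem out_mem_iff (c : ConjClasses G) {g : G} (hg : ConjClasses.mk g = c) :
    Quotient.out c ∈ N ↔ g ∈ N := by
  have h1 : ConjClasses.mk (Quotient.out c) = c := Quotient.out_eq c
  rw [← hg] at h1
  obtain ⟨x, hx⟩ := isConj_iff.1 (ConjClasses.mk_eq_mk_iff_isConj.1 h1)
  rw [← hg]
  constructor
  · intro h
    rw [← hx]
    exact hNn.conj_mem _ h x
  · intro h
    have h2 : Quotient.out (ConjClasses.mk g) =
      x⁻¹ * (x * Quotient.out (ConjClasses.mk g) * x⁻¹) * x⁻¹⁻¹ := by group
    rw [h2, hx]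
    exact hNn.conj_mem _ h x⁻¹

/-- for `y ∉ N` half of the centralizer is in `N` -/
theorem card_centralizer_outer [Finite G] (h2 : N.index = 2) {y : G} (hy : y ∉ N) :
    Nat.card (Subgroup.centralizer ({y} : Set G)) = 2 * Nat.card {n : N // Commute (n : G) y} := by
  have h1 : N.relIndex (Subgroup.centralizer ({y} : Set G)) = 2 := by
    have h3 : N.relIndex (Subgroup.centralizer ({y} : Set G)) ∣ 2 := by
      rw [← h2]
      exact Subgroup.relIndex_dvd_index_of_normal _ _
    rcases (Nat.dvd_prime Nat.prime_two).1 h3 with h4 | h4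
    · exfalso
      apply hy
      rw [Subgroup.relIndex_eq_one] at h4
      exact h4 (Subgroup.mem_centralizer_singleton_iff.2 rfl)
    · exact h4
  have h5 := (N.subgroupOf (Subgroup.centralizer ({y} : Set G))).card_mul_index
  have h6 : (N.subgroupOf (Subgroup.centralizer ({y} : Set G))).index = 2 := h1
  rw [h6] at h5
  rw [← h5, mul_comm]
  congr 1
  refine Nat.card_congr ⟨fun x => ⟨⟨x.1.1, Subgroup.mem_subgroupOf.1 x.2⟩,
    Subgroup.mem_centralizer_singleton_iff.1 x.1.2⟩, fun x => ⟨⟨x.1.1,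
    Subgroup.mem_centralizer_singleton_iff.2 x.2⟩, Subgroup.mem_subgroupOf.2 x.1.2⟩,
    fun x => rfl, fun x => rfl⟩

theorem mk_map_eq_iff (h2 : N.index = 2) {g₀ : G} (hg₀ : g₀ ∉ N) (n : N) :
    ConjClasses.map (MulAut.conjNormal g₀ : MulAut N).toMonoidHom (ConjClasses.mk n) =
      ConjClasses.mk n ↔ ∃ c : G, c ∉ N ∧ Commute (n : G) c := by
  have h1 : ConjClasses.map (MulAut.conjNormal g₀ : MulAut N).toMonoidHom (ConjClasses.mk n) =
      ConjClasses.mk ((MulAut.conjNormal g₀ : MulAut N) n) := rfl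
  rw [h1, ConjClasses.mk_eq_mk_iff_isConj, isConj_iff]
  constructor
  · rintro ⟨m, hm⟩
    refine ⟨m * g₀, fun h => hg₀ ((N.mul_mem_cancel_left m.2).1 h), ?_⟩
    have h3 : (m : G) * (g₀ * n * g₀⁻¹) * (m : G)⁻¹ = n := by
      have := congrArg Subtype.val hm
      simpa using this
    have h4 : (m : G) * g₀ * n = (m : G) * (g₀ * n * g₀⁻¹) * (m : G)⁻¹ * (m * g₀) := by group
    rw [h3] at h4
    exact h4.symm
  · rintro ⟨c, hc, hcc⟩
    refine ⟨⟨c * g₀⁻¹, ?_⟩, ?_⟩
    · rw [Subgroup.mul_mem_iff_of_index_two h2, N.inv_mem_iff]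
      exact iff_of_false hc hg₀
    · apply Subtype.ext
      show c * g₀⁻¹ * (g₀ * n * g₀⁻¹) * (c * g₀⁻¹)⁻¹ = n
      have h4 : c * g₀⁻¹ * (g₀ * n * g₀⁻¹) * (c * g₀⁻¹)⁻¹ = c * n * c⁻¹ := by group
      rw [h4, ← hcc.eq]
      group

theorem card_centralizer_conj {H : Type u} [Group H] (x g : H) :
    Nat.card (Subgroup.centralizer ({g * x * g⁻¹} : Set H)) =
      Nat.card (Subgroup.centralizer ({x} : Set H)) := by
  refine (Nat.card_congr ((MulAut.conj g).toEquiv.subtypeEquiv fun c => ?_)).symm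
  rw [Subgroup.mem_centralizer_singleton_iff, Subgroup.mem_centralizer_singleton_iff]
  show c * x = x * c ↔ g * c * g⁻¹ * (g * x * g⁻¹) = g * x * g⁻¹ * (g * c * g⁻¹)
  have h1 : g * c * g⁻¹ * (g * x * g⁻¹) = g * (c * x) * g⁻¹ := by group
  have h2 : g * x * g⁻¹ * (g * c * g⁻¹) = g * (x * c) * g⁻¹ := by group
  rw [h1, h2, mul_left_inj, mul_right_inj]

open Classical in
/-- for `n ∈ N` the elements of `C(n)` outside `N` -/
theorem card_outer_comm [Finite G] (h2 : N.index = 2) {g₀ : G} (hg₀ : g₀ ∉ N) (n : N) :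
    Nat.card {y : G // y ∉ N ∧ Commute (n : G) y} =
      if ConjClasses.map (MulAut.conjNormal g₀ : MulAut N).toMonoidHom (ConjClasses.mk n) =
        ConjClasses.mk n then Nat.card (Subgroup.centralizer ({n} : Set N)) else 0 := by
  classical
  split_ifs with h
  · obtain ⟨c, hc, hcc⟩ := (mk_map_eq_iff N h2 hg₀ n).1 h
    refine Nat.card_congr ⟨fun y => ⟨⟨c⁻¹ * y.1, ?_⟩, ?_⟩, fun m => ⟨c * (m.1 : N), ?_, ?_⟩,
      fun y => ?_, fun m => ?_⟩
    · rw [Subgroup.mul_mem_iff_of_index_two h2, N.inv_mem_iff]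
      exact iff_of_false hc y.2.1
    · rw [Subgroup.mem_centralizer_singleton_iff]
      apply Subtype.ext
      show c⁻¹ * y.1 * n = n * (c⁻¹ * y.1)
      exact ((hcc.inv_right.mul_right y.2.2).eq).symm
    · intro h5
      exact hc ((N.mul_mem_cancel_right (m.1 : N).2).1 h5)
    · refine hcc.mul_right ?_
      have h6 := Subgroup.mem_centralizer_singleton_iff.1 m.2
      have h7 := congrArg Subtype.val h6
      exact h7.symm
    · apply Subtype.ext
      show c * (c⁻¹ * y.1) = y.1
      group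
    · apply Subtype.ext
      apply Subtype.ext
      show c⁻¹ * (c * (m.1 : N)) = (m.1 : N)
      group
  · rw [Nat.card_eq_zero]
    left
    exact ⟨fun y => h ((mk_map_eq_iff N h2 hg₀ n).2 ⟨y.1, y.2.1, y.2.2⟩)⟩

/-- **The outer classes** are as many as the invariant classes of `N`. -/
theorem card_outer [Finite G] (h2 : N.index = 2) {g₀ : G} (hg₀ : g₀ ∉ N) :
    Nat.card (Outer N) = Nat.card {C : ConjClasses N //
      ConjClasses.map (MulAut.conjNormal g₀ : MulAut N).toMonoidHom C = C} := by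
  classical
  have := Fintype.ofFinite G
  have := Fintype.ofFinite N
  have := Fintype.ofFinite (ConjClasses G)
  have := Fintype.ofFinite (ConjClasses N)
  -- the sum over `y ∉ N`
  have e1 : ∑ y : G, (if y ∈ N then 0 else (Nat.card (Subgroup.centralizer ({y} : Set G)) : ℤ)) =
      Nat.card G * Nat.card (Outer N) := by
    rw [Cfsg.Agent.Blocks.Central.sum_eq_sum_conjClasses (k := ℤ)
      (fun y : G => if y ∈ N then 0 else (Nat.card (Subgroup.centralizer ({y} : Set G)) : ℤ))
      (fun x g => by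
        have h3 : g * x * g⁻¹ ∈ N ↔ x ∈ N := by
          constructor
          · intro h
            have h4 := hNn.conj_mem _ h g⁻¹
            have h5 : g⁻¹ * (g * x * g⁻¹) * g⁻¹⁻¹ = x := by group
            rwa [h5] at h4
          · intro h
            exact hNn.conj_mem _ h g
        simp only [h3, card_centralizer_conj])]
    have h3 : ∀ c : ConjClasses G, ((Subgroup.centralizer ({Quotient.out c} : Set G)).index : ℤ) *
        (if Quotient.out c ∈ N then 0 else
          (Nat.card (Subgroup.centralizer ({Quotient.out c} : Set G)) : ℤ)) =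
        if Quotient.out c ∉ N then (Nat.card G : ℤ) else 0 := by
      intro c
      by_cases h : Quotient.out c ∈ N
      · rw [if_pos h, if_neg (not_not.2 h), mul_zero]
      · rw [if_neg h, if_pos h]
        have := (Subgroup.centralizer ({Quotient.out c} : Set G)).index_mul_card
        exact_mod_cast this
    rw [Finset.sum_congr rfl fun c _ => h3 c, ← Finset.sum_filter, Finset.sum_const, nsmul_eq_mul,
      ← Fintype.card_subtype, ← Nat.card_eq_fintype_card, mul_comm]
  have e2 : ∑ n : N, (Nat.card {y : G // y ∉ N ∧ Commute (n : G) y} : ℤ) =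
      Nat.card N * Nat.card {C : ConjClasses N //
        ConjClasses.map (MulAut.conjNormal g₀ : MulAut N).toMonoidHom C = C} := by
    have h0 : ∀ n : N, (Nat.card {y : G // y ∉ N ∧ Commute (n : G) y} : ℤ) =
        (if ConjClasses.map (MulAut.conjNormal g₀ : MulAut N).toMonoidHom (ConjClasses.mk n) =
          ConjClasses.mk n then (Nat.card (Subgroup.centralizer ({n} : Set N)) : ℤ) else 0) := by
      intro n
      rw [card_outer_comm N h2 hg₀ n]
      split_ifs <;> simp
    rw [Finset.sum_congr rfl fun n _ => h0 n,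
      Cfsg.Agent.Blocks.Central.sum_eq_sum_conjClasses (k := ℤ)
      (fun n : N => (if ConjClasses.map (MulAut.conjNormal g₀ : MulAut N).toMonoidHom
        (ConjClasses.mk n) = ConjClasses.mk n then
          (Nat.card (Subgroup.centralizer ({n} : Set N)) : ℤ) else 0))
      (fun x g => by
        have h3 : ConjClasses.mk (g * x * g⁻¹) = ConjClasses.mk x :=
          ConjClasses.mk_eq_mk_iff_isConj.2 (isConj_iff.2 ⟨g, rfl⟩).symm
        simp only [h3, card_centralizer_conj])]
    have h3 : ∀ c : ConjClasses N, ((Subgroup.centralizer ({Quotient.out c} : Set N)).index : ℤ) *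
        (if ConjClasses.map (MulAut.conjNormal g₀ : MulAut N).toMonoidHom
          (ConjClasses.mk (Quotient.out c)) = ConjClasses.mk (Quotient.out c) then
          (Nat.card (Subgroup.centralizer ({Quotient.out c} : Set N)) : ℤ) else 0) =
        if ConjClasses.map (MulAut.conjNormal g₀ : MulAut N).toMonoidHom c = c then
          (Nat.card N : ℤ) else 0 := by
      intro c
      have h4 : ConjClasses.mk (Quotient.out c) = c := Quotient.out_eq c
      rw [h4]
      by_cases h : ConjClasses.map (MulAut.conjNormal g₀ : MulAut N).toMonoidHom c = c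
      · rw [if_pos h, if_pos h]
        have := (Subgroup.centralizer ({Quotient.out c} : Set N)).index_mul_card
        exact_mod_cast this
      · rw [if_neg h, if_neg h, mul_zero]
    rw [Finset.sum_congr rfl fun c _ => h3 c, ← Finset.sum_filter, Finset.sum_const, nsmul_eq_mul,
      ← Fintype.card_subtype, ← Nat.card_eq_fintype_card, mul_comm]
  -- double counting
  have e3 : ∑ y : G, (if y ∈ N then 0 else (Nat.card (Subgroup.centralizer ({y} : Set G)) : ℤ)) =
      2 * ∑ n : N, (Nat.card {y : G // y ∉ N ∧ Commute (n : G) y} : ℤ) := by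
    have h3 : ∀ y : G, (if y ∈ N then 0 else
        (Nat.card (Subgroup.centralizer ({y} : Set G)) : ℤ)) =
        2 * ∑ n : N, (if y ∉ N ∧ Commute (n : G) y then (1 : ℤ) else 0) := by
      intro y
      by_cases h : y ∈ N
      · rw [if_pos h, Finset.sum_eq_zero, mul_zero]
        intro n _
        rw [if_neg]
        exact fun h' => h'.1 h
      · rw [if_neg h, card_centralizer_outer N h2 h, Nat.card_eq_fintype_card, Fintype.card_subtype,
          Finset.card_filter]
        push_cast
        congr 1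
        refine Finset.sum_congr rfl fun n _ => ?_
        simp only [h, not_false_eq_true, true_and]
    rw [Finset.sum_congr rfl fun y _ => h3 y, ← Finset.mul_sum, Finset.sum_comm]
    congr 1
    refine Finset.sum_congr rfl fun n _ => ?_
    rw [Nat.card_eq_fintype_card, Fintype.card_subtype, Finset.card_filter]
    push_cast
    rfl
  have hG : Nat.card G = 2 * Nat.card N := by
    rw [← N.card_mul_index, h2, mul_comm]
  rw [e1, e2, hG] at e3
  have hpos : 0 < Nat.card N := Nat.card_pos
  have e4 : (2 * Nat.card N) * Nat.card (Outer N) = (2 * Nat.card N) * Nat.card {C : ConjClasses N //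
        ConjClasses.map (MulAut.conjNormal g₀ : MulAut N).toMonoidHom C = C} := by
    have e5 : ((2 * Nat.card N : ℕ) : ℤ) * Nat.card (Outer N) = ((2 * Nat.card N : ℕ) : ℤ) *
      Nat.card {C : ConjClasses N //
        ConjClasses.map (MulAut.conjNormal g₀ : MulAut N).toMonoidHom C = C} := by
      rw [e3]
      push_cast
      ring
    exact_mod_cast e5
  exact Nat.eq_of_mul_eq_mul_left (by omega) e4

/-- a character vanishing outside `N` has as many zeros as there are outer classes -/
theorem outer_le_zc [Finite G] {χ : IrrCharacter G} (h : ∀ y : G, y ∉ N → (χ : G → ℂ) y = 0) :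
    Nat.card (Outer N) ≤ zc χ := by
  refine Nat.card_le_card_of_injective (fun c => ⟨c.1, fun g hg => ?_⟩) ?_
  · exact h g fun hN => c.2 ((out_mem_iff N c.1 hg).2 hN)
  · intro a b hab
    have h1 := congrArg Subtype.val hab
    exact Subtype.ext h1

/-- conjugates of a character of `N` -/
theorem comp_conj (h2 : N.index = 2) {g₀ : G} (hg₀ : g₀ ∉ N) (θ : IrrCharacter N) [Finite G] (g : G) :
    (θ : N → ℂ) ∘ (MulAut.conjNormal g : MulAut N) = θ ∨
      (θ : N → ℂ) ∘ (MulAut.conjNormal g : MulAut N) =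
        (θ : N → ℂ) ∘ (MulAut.conjNormal g₀ : MulAut N) := by
  have hcl : IsClassFunction N (θ : N → ℂ) := isIrr_isClassFunction θ.2
  by_cases hg : g ∈ N
  · left
    funext n
    have h1 : (MulAut.conjNormal g : MulAut N) n = ⟨g, hg⟩ * n * ⟨g, hg⟩⁻¹ := by
      apply Subtype.ext
      rw [MulAut.conjNormal_apply]
      rfl
    rw [Function.comp_apply, h1]
    exact (hcl _ _)
  · right
    have hm : g * g₀⁻¹ ∈ N := by
      rw [Subgroup.mul_mem_iff_of_index_two h2, N.inv_mem_iff]
      exact iff_of_false hg hg₀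
    funext n
    have h1 : (MulAut.conjNormal g : MulAut N) n =
        ⟨g * g₀⁻¹, hm⟩ * (MulAut.conjNormal g₀ : MulAut N) n * ⟨g * g₀⁻¹, hm⟩⁻¹ := by
      apply Subtype.ext
      rw [MulAut.conjNormal_apply]
      show g * n * g⁻¹ = g * g₀⁻¹ * (MulAut.conjNormal g₀ n : N) * (g * g₀⁻¹)⁻¹
      rw [MulAut.conjNormal_apply]
      group
    rw [Function.comp_apply, Function.comp_apply, h1]
    exact (hcl _ _)

/-- the characters over a non-invariant character vanish outside `N` -/
theorem over_vanish [Finite G] [Fintype N] (h2 : N.index = 2) {g₀ : G}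
    {θ : IrrCharacter N} (hθ : (θ : N → ℂ) ∘ (MulAut.conjNormal g₀ : MulAut N) ≠ θ)
    {χ : IrrCharacter G} (h : classInner (fun n : N => (χ : G → ℂ) n) (θ : N → ℂ) ≠ 0) :
    ∀ y : G, y ∉ N → (χ : G → ℂ) y = 0 := by
  intro y hy
  by_contra hne
  have h1 := Cfsg.Agent.HKS.CosetTwo.isIrr_restrict h2 χ.2 hy hne
  have h3 : (fun n : N => (χ : G → ℂ) n) = θ := by
    by_contra h4
    exact h (classInner_irr_ne h1 θ.2 h4)
  apply hθ
  rw [← h3]
  funext n
  show (χ : G → ℂ) ((MulAut.conjNormal g₀ n : N) : G) = (χ : G → ℂ) n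
  rw [MulAut.conjNormal_apply]
  exact isIrr_isClassFunction χ.2 _ _

/-- at most one character vanishing outside `N`: at most two non-invariant characters -/
theorem noninv_le_two [Finite G] (h2 : N.index = 2) {g₀ : G} (hg₀ : g₀ ∉ N)
    (hA : ∀ χ ψ : IrrCharacter G, (∀ y : G, y ∉ N → (χ : G → ℂ) y = 0) →
      (∀ y : G, y ∉ N → (ψ : G → ℂ) y = 0) → χ = ψ) :
    Nat.card {θ : IrrCharacter N //
      ¬ (θ : N → ℂ) ∘ (MulAut.conjNormal g₀ : MulAut N) = (θ : N → ℂ)} ≤ 2 := by
  classical
  have := Fintype.ofFinite G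
  have := Fintype.ofFinite N
  have := finite_irr (G := N)
  by_cases h0 : Nonempty {θ : IrrCharacter N //
      ¬ (θ : N → ℂ) ∘ (MulAut.conjNormal g₀ : MulAut N) = (θ : N → ℂ)}
  swap
  · rw [not_nonempty_iff] at h0
    rw [Nat.card_of_isEmpty]
    omega
  obtain ⟨θ₀, hθ₀⟩ := h0
  have hirr : IsIrrCharacter N ((θ₀ : N → ℂ) ∘ (MulAut.conjNormal g₀ : MulAut N)) :=
    isIrr_comp ((MulAut.conjNormal g₀ : MulAut N) : N →* N)
      (MulAut.conjNormal g₀ : MulAut N).surjective θ₀.2
  have hsub : {θ : IrrCharacter N | ¬ (θ : N → ℂ) ∘ (MulAut.conjNormal g₀ : MulAut N) = θ} ⊆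
      {θ₀, ⟨_, hirr⟩} := by
    intro θ hθ
    obtain ⟨χ₀, h3⟩ := Cfsg.Agent.Blocks.Over.exists_over N θ₀
    obtain ⟨χ, h4⟩ := Cfsg.Agent.Blocks.Over.exists_over N θ
    have h5 : χ₀ = χ := hA _ _ (over_vanish N h2 hθ₀ h3) (over_vanish N h2 hθ h4)
    rw [← h5] at h4
    obtain ⟨g, hg⟩ := Cfsg.Agent.Characters.Clifford.exists_conj_of_constituents N χ₀.2 θ₀.2 θ.2
      h3 h4
    rcases comp_conj N h2 hg₀ θ₀ g with h6 | h6
    · left
      exact Subtype.ext (hg.trans h6)
    · right
      exact Subtype.ext (hg.trans h6)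
  refine (Set.ncard_le_ncard hsub (Set.toFinite _)).trans ((Set.ncard_insert_le _ _).trans ?_)
  rw [Set.ncard_singleton]

/-- complementary subtypes -/
theorem card_compl {X : Type*} [Finite X] (p : X → Prop) :
    Nat.card {x // p x} + Nat.card {x // ¬ p x} = Nat.card X := by
  classical
  have := Fintype.ofFinite X
  rw [← Nat.card_sum]
  exact Nat.card_congr (Equiv.sumCompl p)

/-- as many non-invariant classes as non-invariant characters -/
theorem card_noninv [Finite G] (α : MulAut N) :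
    Nat.card {C : ConjClasses N // ¬ ConjClasses.map α.toMonoidHom C = C} =
      Nat.card {θ : IrrCharacter N // ¬ (θ : N → ℂ) ∘ α = (θ : N → ℂ)} := by
  have := finite_irr (G := N)
  have h1 := card_compl (fun C : ConjClasses N => ConjClasses.map α.toMonoidHom C = C)
  have h2 := card_compl (fun θ : IrrCharacter N => (θ : N → ℂ) ∘ α = (θ : N → ℂ))
  have h3 := S0173.result α
  have h4 := card_classes_eq (G := N)
  omega

/-- elements of `N` conjugate in `G` but not in `N` are not invariant -/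
theorem not_inv_of_conj (h2 : N.index = 2) {g₀ : G} (hg₀ : g₀ ∉ N) {u v : N}
    (h : IsConj (u : G) v) (hn : ¬ IsConj u v) :
    ¬ ConjClasses.map (MulAut.conjNormal g₀ : MulAut N).toMonoidHom (ConjClasses.mk u) =
      ConjClasses.mk u := by
  intro h3
  obtain ⟨c, hc, hcc⟩ := (mk_map_eq_iff N h2 hg₀ u).1 h3
  obtain ⟨g, hg⟩ := isConj_iff.1 h
  have hgN : g ∉ N := by
    intro hgN
    exact hn (isConj_iff.2 ⟨⟨g, hgN⟩, Subtype.ext hg⟩)
  have hm : g * c⁻¹ ∈ N := by
    rw [Subgroup.mul_mem_iff_of_index_two h2, N.inv_mem_iff]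
    exact iff_of_false hgN hc
  refine hn (isConj_iff.2 ⟨⟨g * c⁻¹, hm⟩, Subtype.ext ?_⟩)
  show g * c⁻¹ * u * (g * c⁻¹)⁻¹ = v
  have h5 : g * c⁻¹ * u * (g * c⁻¹)⁻¹ = g * (c⁻¹ * u * c) * g⁻¹ := by group
  have h6 : c⁻¹ * u * c = u := by
    rw [mul_assoc, hcc.eq]
    group
  rw [h5, h6, hg]

/-- at most two non-invariant classes: drop at most one element of `s` -/
theorem exists_sub [Finite G] (h2 : N.index = 2) {g₀ : G} (hg₀ : g₀ ∉ N)
    (hnc : Nat.card {C : ConjClasses N //
      ¬ ConjClasses.map (MulAut.conjNormal g₀ : MulAut N).toMonoidHom C = C} ≤ 2)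
    (s : Finset N) (hs : NonConj s) [DecidableEq N] :
    ∃ s' : Finset N, (s' = s ∨ ∃ x ∈ s, (∃ y ∈ s, y ≠ x ∧ orderOf y = orderOf x) ∧
      s' = s.erase x) ∧ ∀ a ∈ s', ∀ b ∈ s', IsConj (a : G) b → a = b := by
  by_cases h : ∀ a ∈ s, ∀ b ∈ s, IsConj (a : G) b → a = b
  · exact ⟨s, Or.inl rfl, h⟩
  push Not at h
  obtain ⟨x, hx, y, hy, hxy, hne⟩ := h
  refine ⟨s.erase x, Or.inr ⟨x, hx, ⟨y, hy, hne.symm, ?_⟩, rfl⟩, ?_⟩
  · obtain ⟨c, hc⟩ := isConj_iff.1 hxy
    rw [← Subgroup.orderOf_coe, ← Subgroup.orderOf_coe, ← hc]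
    exact (MulAut.conj c).orderOf_eq (x : G)
  intro a ha b hb hab
  by_contra hab'
  have hax := Finset.ne_of_mem_erase ha
  have hbx := Finset.ne_of_mem_erase hb
  have ha' := Finset.mem_of_mem_erase ha
  have hb' := Finset.mem_of_mem_erase hb
  have n1 := not_inv_of_conj N h2 hg₀ hxy fun h => hne (hs x hx y hy h)
  have n2 := not_inv_of_conj N h2 hg₀ hab fun h => hab' (hs a ha' b hb' h)
  have n3 := not_inv_of_conj N h2 hg₀ hab.symm fun h => hab' (hs b hb' a ha' h).symm
  have hf : Function.Injective (![⟨ConjClasses.mk x, n1⟩, ⟨ConjClasses.mk a, n2⟩,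
      ⟨ConjClasses.mk b, n3⟩] : Fin 3 → {C : ConjClasses N //
      ¬ ConjClasses.map (MulAut.conjNormal g₀ : MulAut N).toMonoidHom C = C}) := by
    have q1 : ConjClasses.mk x ≠ ConjClasses.mk a := fun h =>
      hax (hs x hx a ha' (ConjClasses.mk_eq_mk_iff_isConj.1 h)).symm
    have q2 : ConjClasses.mk x ≠ ConjClasses.mk b := fun h =>
      hbx (hs x hx b hb' (ConjClasses.mk_eq_mk_iff_isConj.1 h)).symm
    have q3 : ConjClasses.mk a ≠ ConjClasses.mk b := fun h =>
      hab' (hs a ha' b hb' (ConjClasses.mk_eq_mk_iff_isConj.1 h))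
    intro i j hij
    have hij' := congrArg Subtype.val hij
    fin_cases i <;> fin_cases j <;> first
      | rfl
      | exact absurd hij' q1
      | exact absurd hij' q2
      | exact absurd hij' q3
      | exact absurd hij'.symm q1
      | exact absurd hij'.symm q2
      | exact absurd hij'.symm q3
  have h5 := Nat.card_le_card_of_injective _ hf
  rw [Nat.card_eq_fintype_card, Fintype.card_fin] at h5
  omega

/-- **Index two**: `Two G` from columns of `N`. -/
theorem two_of_index_two [Finite G] [DecidableEq N] (h2 : N.index = 2)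
    (h3 : 3 ≤ Nat.card (Outer N)) (s : Finset N)
    (hs : NonConj s) (hs3 : 3 ≤ s.card) (f : N → ℕ) (hf : ∀ g ∈ s, nv g ≤ f g) {k : ℕ}
    (hk : k ≤ Nat.card (ConjClasses N))
    (hfull : ∑ g ∈ s, f g < (s.card - 2) * (k - 2) + 2)
    (her : ∀ x ∈ s, (∃ y ∈ s, y ≠ x ∧ orderOf y = orderOf x) →
      ∑ g ∈ s.erase x, f g < (s.card - 3) * (k - 2) + 2) : Two G := by
  classical
  by_contra hcon
  have hNtop : N ≠ ⊤ := by
    rintro rfl
    rw [Subgroup.index_top] at h2
    omega
  obtain ⟨g₀, hg₀⟩ : ∃ g₀ : G, g₀ ∉ N := by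
    by_contra h
    push Not at h
    exact hNtop (eq_top_iff.2 fun g _ => h g)
  have hA : ∀ χ ψ : IrrCharacter G, (∀ y : G, y ∉ N → (χ : G → ℂ) y = 0) →
      (∀ y : G, y ∉ N → (ψ : G → ℂ) y = 0) → χ = ψ := by
    intro χ ψ hχ hψ
    by_contra hne
    exact hcon ⟨χ, ψ, hne, h3.trans (outer_le_zc N hχ), h3.trans (outer_le_zc N hψ)⟩
  have h4 := noninv_le_two N h2 hg₀ hA
  have h5 := card_noninv N (MulAut.conjNormal g₀ : MulAut N)
  obtain ⟨s', hs', hnc⟩ := exists_sub N h2 hg₀ (h5.le.trans h4) s hs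
  have h6 : s' ⊆ s := by
    rcases hs' with rfl | ⟨x, -, -, rfl⟩
    · exact subset_rfl
    · exact Finset.erase_subset _ _
  have h7 : 2 < Nat.card {θ : IrrCharacter N // 3 ≤ zin s' θ} := by
    refine card_three s' ?_ f (fun g hg => hf g (h6 hg)) hk ?_
    · rcases hs' with rfl | ⟨x, hx, -, rfl⟩
      · omega
      · rw [Finset.card_erase_of_mem hx]
        omega
    · rcases hs' with rfl | ⟨x, hx, hy, rfl⟩
      · exact hfull
      · rw [Finset.card_erase_of_mem hx]
        exact her x hx hy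
  have := finite_irr (G := N)
  obtain ⟨θ, hθ3, hθ⟩ : ∃ θ : IrrCharacter N, 3 ≤ zin s' θ ∧
      (θ : N → ℂ) ∘ (MulAut.conjNormal g₀ : MulAut N) = θ := by
    by_contra h
    push Not at h
    have h8 : Nat.card {θ : IrrCharacter N // 3 ≤ zin s' θ} ≤ Nat.card {θ : IrrCharacter N //
        ¬ (θ : N → ℂ) ∘ (MulAut.conjNormal g₀ : MulAut N) = (θ : N → ℂ)} :=
      Nat.card_le_card_of_injective (fun θ => ⟨θ.1, h θ.1 θ.2⟩) fun a b hab => by
        have h9 := congrArg Subtype.val hab
        exact Subtype.ext h9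
    omega
  have hcyc : IsCyclic (G ⧸ N) := by
    have : Fact (Nat.Prime 2) := ⟨Nat.prime_two⟩
    exact isCyclic_of_prime_card (p := 2) h2
  obtain ⟨χ, hχ, hχθ⟩ := S0886.result N hcyc θ θ.2 (by
    intro g n
    have h9 : (θ : N → ℂ) ((MulAut.conjNormal g : MulAut N) n) = (θ : N → ℂ) n := by
      rcases comp_conj N h2 hg₀ θ g with h10 | h10
      · exact congrFun h10 n
      · exact congrFun (h10.trans hθ) n
    exact h9)
  refine hcon (two_of_gallagher N hNtop (χ := ⟨χ, hχ⟩) ?_ ?_)
  · have h9 : (fun k : N => χ k) = θ := funext hχθ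
    show IsIrrCharacter N (fun k : N => χ k)
    rw [h9]
    exact θ.2
  · -- the zeros
    have h10 : (Finset.image (fun n : N => (n : G)) (s'.filter fun g => (θ : N → ℂ) g = 0)).card =
        zin s' θ := by
      unfold zin
      exact Finset.card_image_of_injective _ Subtype.val_injective
    rw [← h10] at hθ3
    refine hθ3.trans (le_zc ?_ ?_)
    · intro g hg h hh hc
      obtain ⟨a, ha, rfl⟩ := Finset.mem_image.1 hg
      obtain ⟨b, hb, rfl⟩ := Finset.mem_image.1 hh
      rw [hnc a (Finset.mem_filter.1 ha).1 b (Finset.mem_filter.1 hb).1 hc]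
    · intro g hg
      obtain ⟨a, ha, rfl⟩ := Finset.mem_image.1 hg
      show χ a = 0
      rw [hχθ]
      exact (Finset.mem_filter.1 ha).2

/-- three invariant classes of `N`: three outer classes -/
theorem three_le_outer [Finite G] (h2 : N.index = 2) (t : Finset N) (ht : NonConj t)
    (h3 : 3 ≤ t.card) (hinv : ∀ x ∈ t, ∀ g : G, IsConj x ((MulAut.conjNormal g : MulAut N) x)) :
    3 ≤ Nat.card (Outer N) := by
  classical
  obtain ⟨g₀, hg₀⟩ : ∃ g₀ : G, g₀ ∉ N := by
    by_contra h
    push Not at h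
    have : N = ⊤ := eq_top_iff.2 fun g _ => h g
    rw [this, Subgroup.index_top] at h2
    omega
  rw [card_outer N h2 hg₀]
  refine h3.trans ?_
  have h4 : Nat.card t = t.card := by rw [Nat.card_eq_fintype_card, Fintype.card_coe]
  rw [← h4]
  refine Nat.card_le_card_of_injective (fun x => ⟨ConjClasses.mk (x : N), ?_⟩) ?_
  · exact ConjClasses.mk_eq_mk_iff_isConj.2 (hinv x x.2 g₀).symm
  · intro a b hab
    have h1 := congrArg Subtype.val hab
    exact Subtype.ext (ht a a.2 b b.2 (ConjClasses.mk_eq_mk_iff_isConj.1 h1))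

end Idx

section Row

theorem nv_equiv {G : Type u} [Group G] {H : Type v} [Group H] (e : G ≃* H) (x : G) :
    nv x = nv (e x) := by
  refine Nat.card_congr ((irrEquiv e).symm.subtypeEquiv fun χ => ?_)
  show (χ : G → ℂ) x ≠ 0 ↔ (χ : G → ℂ) (e.symm (e x)) ≠ 0
  rw [e.symm_apply_apply]

/-- A normal subgroup with trivial centralizer: the index is at most `|Out N|`. -/
theorem index_le_out {G : Type*} [Group G] [Finite G] {N : Subgroup G} (hN : N.Normal)
    (hc : Subgroup.centralizer (N : Set G) = ⊥) : N.index ≤ Nat.card (Out N) := by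
  have h1 : Function.Injective (MulAut.conjNormal : G →* MulAut ↥N) := by
    rw [injective_iff_map_eq_one]
    intro g hg
    have h2 : g ∈ Subgroup.centralizer (N : Set G) := by
      rw [Subgroup.mem_centralizer_iff]
      intro n hn
      have h3 := congrArg (fun f : MulAut ↥N => ((f ⟨n, hn⟩ : ↥N) : G)) hg
      simp only [MulAut.conjNormal_apply, MulAut.one_apply] at h3
      rw [mul_inv_eq_iff_eq_mul] at h3
      exact h3.symm
    rw [hc] at h2
    exact h2
  have h2 : Nat.card G ≤ Nat.card (MulAut ↥N) := Nat.card_le_card_of_injective _ h1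
  have h3 : Nat.card ↥(MulAut.conj : ↥N →* MulAut ↥N).range ≤ Nat.card ↥N :=
    Nat.card_le_card_of_surjective _ (MulAut.conj : ↥N →* MulAut ↥N).rangeRestrict_surjective
  have h4 := N.card_mul_index
  have h5 := (MulAut.conj : ↥N →* MulAut ↥N).range.card_mul_index
  have h6 : 0 < Nat.card ↥N := Nat.card_pos
  have h7 : Nat.card ↥N * N.index ≤ Nat.card ↥N * (MulAut.conj : ↥N →* MulAut ↥N).range.index := by
    rw [h4]
    refine h2.trans ?_
    rw [← h5]
    exact Nat.mul_le_mul_right _ h3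
  exact Nat.le_of_mul_le_mul_left h7 h6

/-- **`|Out S| ≤ 2`**: three classes invariant under automorphisms and columns of `S` give `Row2 S`. -/
theorem row2_of_out_le_two {S : Type u} [Group S] [Finite S] [DecidableEq S]
    (hout : Nat.card (Out S) ≤ 2) (t : Finset S)
    (ht : NonConj t) (ht3 : 3 ≤ t.card) (hinv : ∀ x ∈ t, ∀ φ : MulAut S, IsConj x (φ x))
    (s : Finset S) (hs : NonConj s) (hs3 : 3 ≤ s.card) (f : S → ℕ) (hf : ∀ g ∈ s, nv g ≤ f g)
    {k : ℕ} (hk : k ≤ Nat.card (ConjClasses S))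
    (hfull : ∑ g ∈ s, f g < (s.card - 2) * (k - 2) + 2)
    (her : ∀ x ∈ s, (∃ y ∈ s, y ≠ x ∧ orderOf y = orderOf x) →
      ∑ g ∈ s.erase x, f g < (s.card - 3) * (k - 2) + 2) : Row2 S := by
  classical
  rintro G _ _ N hN ⟨e⟩ hc - hNtop
  left
  have h1 : N.index ≤ 2 := (index_le_out hN hc).trans (by rwa [H55.OutGen.card_out_congr e])
  have h2 : N.index = 2 := by
    have h3 : N.index ≠ 1 := fun h => hNtop (Subgroup.index_eq_one.1 h)
    have h4 : N.index ≠ 0 := N.index_ne_zero_of_finite
    omega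
  have hconj : ∀ x y : S, IsConj (e.symm x) (e.symm y) → IsConj x y := by
    intro x y h
    have := isConj_map (e : N →* S) h
    simpa using this
  have himg : ∀ u : Finset S, NonConj u → NonConj (u.image e.symm) := by
    intro u hu g hg h hh hgh
    obtain ⟨x, hx, rfl⟩ := Finset.mem_image.1 hg
    obtain ⟨y, hy, rfl⟩ := Finset.mem_image.1 hh
    rw [hu x hx y hy (hconj x y hgh)]
  have hcard : ∀ u : Finset S, (u.image e.symm).card = u.card := fun u =>
    Finset.card_image_of_injective _ e.symm.injective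
  have hsum : ∀ u : Finset S, ∑ g ∈ u.image e.symm, f (e g) = ∑ g ∈ u, f g := by
    intro u
    rw [Finset.sum_image fun a _ b _ h => e.symm.injective h]
    exact Finset.sum_congr rfl fun x _ => by rw [e.apply_symm_apply]
  have h3 : 3 ≤ Nat.card (Outer N) := by
    refine three_le_outer N h2 (t.image e.symm) (himg t ht) (by rw [hcard]; exact ht3) ?_
    intro g hg c
    obtain ⟨x, hx, rfl⟩ := Finset.mem_image.1 hg
    have h4 := hinv x hx (autS N e c)
    have h5 := isConj_map (e.symm : S →* N) h4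
    rw [autS_apply] at h5
    simpa using h5
  refine two_of_index_two N h2 h3 (s.image e.symm) (himg s hs) (by rw [hcard]; exact hs3)
    (fun n => f (e n)) ?_ (k := k) ?_ ?_ ?_
  · intro g hg
    obtain ⟨x, hx, rfl⟩ := Finset.mem_image.1 hg
    rw [nv_equiv e, e.apply_symm_apply]
    exact hf x hx
  · rw [Nat.card_congr (ccEquiv e)]
    exact hk
  · rw [hsum, hcard]
    exact hfull
  · intro g hg
    obtain ⟨x, hx, rfl⟩ := Finset.mem_image.1 hg
    rintro ⟨y', hy', hne, ho⟩
    obtain ⟨y, hy, rfl⟩ := Finset.mem_image.1 hy'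
    rw [← Finset.image_erase e.symm.injective, hsum, hcard]
    refine her x hx ⟨y, hy, fun h => hne (by rw [h]), ?_⟩
    rwa [MulEquiv.orderOf_eq, MulEquiv.orderOf_eq] at ho

end Row


end Cfsg.Agent.H633.TwoIdx
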